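import Cfsg.Agent.H251.JThompson

/-!
Fixed points of 2-groups acting by conjugation, and the Sylow centre lemma.
-/

set_option autoImplicit false
set_option linter.unusedSectionVars false

namespace Cfsg.Agent.H251

open Cfsg Subgroup
open scoped Pointwise commutatorElement

variable {G : Type*} [Group G] [Finite G]

theorem two_dvd_card {X : Subgroup G} (hX : IsPGroup 2 X) (h1 : X ≠ ⊥) : 2 ∣ Nat.card X := by
  have hnt : Nontrivial X := (Subgroup.nontrivial_iff_ne_bot X).2 h1
  obtain ⟨n, hn, hcard⟩ := (IsPGroup.nontrivial_iff_card hX).1 hnt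
  rw [hcard]; exact dvd_pow_self 2 hn.ne'

/-- A 2-group `T` normalizing a non-trivial 2-group `U` centralizes a non-trivial element of `U`. -/
theorem exists_fixed {T U : Subgroup G} (hT : IsPGroup 2 T) (hU : IsPGroup 2 U) (hU1 : U ≠ ⊥)
    (hTU : T ≤ normalizer (U : Set G)) : ∃ x ∈ U, x ≠ 1 ∧ x ∈ centralizer (T : Set G) := by
  have hmem : ∀ (t : T) (u : G), u ∈ U → (t : G) * u * (t : G)⁻¹ ∈ U := fun t u hu =>
    (Subgroup.mem_normalizer_iff.1 (hTU t.2) u).1 hu
  let act : MulAction T U :=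
    { smul := fun t u => ⟨(t : G) * u * (t : G)⁻¹, hmem t u u.2⟩
      one_smul := fun u => Subtype.ext (by
        show ((1 : T) : G) * (u : G) * ((1 : T) : G)⁻¹ = u
        simp)
      mul_smul := fun s t u => Subtype.ext (by
        show ((s * t : T) : G) * (u : G) * ((s * t : T) : G)⁻¹ =
          (s : G) * ((t : G) * u * (t : G)⁻¹) * (s : G)⁻¹
        rw [Subgroup.coe_mul]; group) }
  have hfix1 : (1 : U) ∈ MulAction.fixedPoints T U := by
    intro t
    apply Subtype.ext
    show (t : G) * ((1 : U) : G) * (t : G)⁻¹ = ((1 : U) : G)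
    simp
  obtain ⟨b, hb, hb1⟩ := hT.exists_fixed_point_of_prime_dvd_card_of_fixed_point U
    (two_dvd_card hU hU1) hfix1
  refine ⟨b, b.2, ?_, ?_⟩
  · intro h
    exact hb1 (Subtype.ext h.symm)
  · rw [mem_centralizer_iff]
    intro t ht
    have h1 := congrArg Subtype.val (hb ⟨t, ht⟩)
    have h2 : t * (b : G) * t⁻¹ = b := h1
    calc t * (b : G) = t * b * t⁻¹ * t := by group
      _ = b * t := by rw [h2]

/-- If a 2-group `T` normalizes a non-trivial 2-group `U`, then some non-trivial element of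
`Ω₁(Z(U))` is centralized by `T`. -/
theorem exists_fixed_omegaCenterOf {T U : Subgroup G} (hT : IsPGroup 2 T) (hU : IsPGroup 2 U)
    (hU1 : U ≠ ⊥) (hTU : T ≤ normalizer (U : Set G)) :
    ∃ x ∈ omegaCenterOf U, x ≠ 1 ∧ x ∈ centralizer (T : Set G) :=
  exists_fixed hT (omegaCenterOf_isPGroup U) (omegaCenterOf_ne_bot hU hU1)
    (hTU.trans (normalizer_le_normalizer_omegaCenterOf U))

end Cfsg.Agent.H251
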